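import Cfsg.Agent.H14.U62.Codes
import Cfsg.Agent.H14.U62.Data
import Cfsg.Agent.H14.U62.Mats
import Cfsg.Agent.H15.ConwayBase

/-! Kernel checks matching six transvections with six matrices of the Leech lattice. -/

set_option autoImplicit false

namespace Cfsg.Agent.H14.U62

open H15 (slot allBlocks checkImg packCols)

/-- The code of `(4, -4, 0²²)` on the first two indices. -/
def cTri : ℕ := 0x88888888888888888888884c

/-- The `i`-th singular point. -/
def pt (i : ℕ) : ℕ := slot 12 ptData i

/-- The centre of a generator. -/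
def ctr (g : ℕ) : ℕ := pt (genPts.getD g 0)

/-- The `i`-th lattice vector, packed. -/
def xP (j : ℕ) : ℕ := slot 96 xData j

/-- The `k`-th spanning vector of the `j`-th plane. -/
def basisN (j k : ℕ) : ℕ := Nat.land (Nat.shiftRight (slot 36 planeData j) (Nat.mul 12 k)) 4095

/-- The permutation of the `891` indices by a generator. -/
def sig (g j : ℕ) : ℕ := slot 10 imgData (Nat.add (Nat.mul g 891) j)

/-- Coefficient of the image of a spanning vector. -/
def coefN (g j k a : ℕ) : ℕ :=
  Nat.land (Nat.shiftRight (slot 18 coefData (Nat.add (Nat.mul g 891) j))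
    (Nat.add (Nat.mul 6 k) (Nat.mul 2 a))) 3

/-- The tree edge at a point. -/
def edge (i : ℕ) : ℕ := slot 15 ptEdges i

/-- The test at a point. -/
noncomputable def ptOk (i : ℕ) : Bool :=
  Nat.beq (hermN (pt i) (pt i)) 0 && (Nat.beq i 0 || (Nat.blt (Nat.div (edge i) 32) i &&
    Nat.blt (Nat.mod (Nat.div (edge i) 4) 8) 6 && !(Nat.beq (Nat.mod (edge i) 4) 0) &&
    Nat.beq (tN (ctr (Nat.mod (Nat.div (edge i) 4) 8)) (pt (Nat.div (edge i) 32)))
      (smulN (Nat.mod (edge i) 4) (pt i))))

/-- The test at a code. -/
noncomputable def lookOk (n : ℕ) : Bool :=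
  Nat.beq n 0 || !(Nat.beq (hermN n n) 0) || (Nat.blt (Nat.div (slot 12 lookData n) 4) 693 &&
    Nat.beq n (smulN (Nat.mod (slot 12 lookData n) 4) (pt (Nat.div (slot 12 lookData n) 4))))

/-- The test at a spanning vector of a plane. -/
noncomputable def spanOk (g j k : ℕ) : Bool :=
  Nat.beq (tN (ctr g) (basisN j k))
    (Nat.xor (smulN (coefN g j k 0) (basisN (sig g j) 0))
      (Nat.xor (smulN (coefN g j k 1) (basisN (sig g j) 1))
        (smulN (coefN g j k 2) (basisN (sig g j) 2))))

/-- The test at a generator and an index. -/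
noncomputable def imgOk (pcs : List (List ℕ × ℕ)) (g j : ℕ) : Bool :=
  Nat.blt (sig g j) 891 && Nat.beq (sig g (sig g j)) j &&
    checkImg (pcs.getD g ([], 0)) (xP j) (xP (sig g j)) &&
    spanOk g j 0 && spanOk g j 1 && spanOk g j 2

/-- The test at a lattice vector. -/
def xOk (j : ℕ) : Bool :=
  H15.leechOk (H15.unpack (xP j)) && (Nat.beq j 0 || Nat.blt (xP (Nat.sub j 1)) (xP j))

/-- The packed columns of the generators. -/
def genCols : List (List ℕ × ℕ) := genMats.map fun M => packCols M.cols

theorem pt_ok : allBlocks ptOk 693 = true := by decide +kernel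

theorem look_ok : allBlocks lookOk 4096 = true := by decide +kernel

theorem x_ok : allBlocks xOk 891 = true := by decide +kernel

theorem img_ok : allBlocks (fun k => imgOk genCols (Nat.div k 891) (Nat.mod k 891)) 5346 = true := by
  decide +kernel

theorem fix_ok : (genMats.all fun M => checkImg (packCols M.cols) H15.cA H15.cA &&
    checkImg (packCols M.cols) cTri cTri) = true := by decide +kernel

theorem genPts_ok : (genPts.all fun i => Nat.blt i 693) = true ∧ genPts.length = 6 ∧
    genMats.length = 6 ∧ genPts.getD 0 0 = 0 := by decide +kernel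

theorem move_ok : hermN (basisN 0 2) (ctr 0) ≠ 0 ∧
    ∀ k : Fin 3, hermN (basisN 0 k) (basisN 0 2) = 0 := by decide +kernel

end Cfsg.Agent.H14.U62
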