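import Cfsg.Agent.H14.U62.Checks
import Cfsg.Agent.H14.PlaneIso
import Cfsg.Agent.H14.StabSimple
import Cfsg.Agent.S0280

/-! The stabiliser of a triangle of type 222 is the projective special unitary group `U6(2)`. -/

set_option autoImplicit false

namespace Cfsg.Agent.H14.U62

open Matrix

/-- The third base vector. -/
def bT : ↥leechLattice := H15.ofCode cTri (by decide +kernel)

/-- The stabiliser of the base triangle. -/
abbrev triStab : Subgroup ↥Co0 :=
  MulAction.stabilizer ↥Co0 H15.bA ⊓ MulAction.stabilizer ↥Co0 bT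

theorem x_leech (j : Fin 891) : H15.leechOk (H15.unpack (xP j)) = true := by
  have h := H15.allBlocks_eq_true x_ok j.2
  rw [xOk, Bool.and_eq_true] at h
  exact h.1

/-- The 891 lattice vectors. -/
def X (j : Fin 891) : ↥leechLattice := H15.ofCode (xP j) (x_leech j)

theorem xP_lt_of_lt : ∀ j i : ℕ, i < j → j < 891 → xP i < xP j
  | 0, i, h, _ => absurd h (Nat.not_lt_zero i)
  | j + 1, i, h, hj => by
    have h1 := H15.allBlocks_eq_true x_ok hj
    simp only [xOk, Bool.and_eq_true, Bool.or_eq_true, Nat.beq_eq, Nat.blt, Nat.ble_eq,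
      Nat.succ_le_iff, Nat.sub_eq, Nat.add_sub_cancel] at h1
    have h2 := h1.2.resolve_left (Nat.succ_ne_zero j)
    rcases Nat.lt_succ_iff_lt_or_eq.1 h with h3 | rfl
    · exact lt_trans (xP_lt_of_lt j i h3 (by omega)) h2
    · exact h2

theorem X_injective : Function.Injective X := fun i j h => by
  have e : xP i = xP j := H15.vecOf_inj (Nat.mod_lt _ (Nat.two_pow_pos _))
    (Nat.mod_lt _ (Nat.two_pow_pos _)) (congrArg Subtype.val h)
  rcases lt_trichotomy (i : ℕ) j with h1 | h1 | h1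
  · exact absurd e (xP_lt_of_lt _ _ h1 j.2).ne
  · exact Fin.ext h1
  · exact absurd e (xP_lt_of_lt _ _ h1 i.2).ne'

/-- The facts recorded for a generator and an index. -/
theorem img_spec {g j : ℕ} (hg : g < 6) (hj : j < 891) :
    sig g j < 891 ∧ sig g (sig g j) = j ∧
      H15.checkImg (genCols.getD g ([], 0)) (xP j) (xP (sig g j)) = true ∧
      ∀ k : Fin 3, spanOk g j k = true := by
  have hk : g * 891 + j < 5346 := by omega
  have h := H15.allBlocks_eq_true img_ok hk
  have e1 : Nat.div (g * 891 + j) 891 = g := by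
    show (g * 891 + j) / 891 = g
    omega
  have e2 : Nat.mod (g * 891 + j) 891 = j := by
    show (g * 891 + j) % 891 = j
    omega
  simp only [e1, e2, imgOk, Bool.and_eq_true, Nat.beq_eq, Nat.blt, Nat.ble_eq, Nat.succ_le_iff] at h
  obtain ⟨⟨⟨⟨⟨h1, h2⟩, h3⟩, h4⟩, h5⟩, h6⟩ := h
  exact ⟨h1, h2, h3, fun k => by fin_cases k <;> assumption⟩

/-- A generator, as an element of the stabiliser. -/
theorem exists_gen {g : ℕ} (hg : g < 6) :
    ∃ k : triStab, ∀ j i : Fin 891, (i : ℕ) = sig g j → k • X j = X i := by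
  have hlen := genPts_ok.2.2.1
  have hm : genMats.getD g (⟨[], []⟩ : H15.Mat) ∈ genMats := H15.getD_mem (by omega)
  have hok := genMats_ok _ hm
  have hf := List.all_eq_true.1 fix_ok _ hm
  rw [Bool.and_eq_true] at hf
  refine ⟨⟨H15.matAut _ hok, H15.smul_eq_self_of_check hok hf.1 (H15.ofCode_val _ _),
    H15.smul_eq_self_of_check hok hf.2 (H15.ofCode_val _ _)⟩, fun j i hi => Subtype.ext ?_⟩
  have h := (img_spec hg j.2).2.2.1
  rw [genCols, H15.getD_map_of_lt (e := (⟨[], []⟩ : H15.Mat)) _ (by omega)] at h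
  show (H15.matAut _ hok • X j : ↥leechLattice).1 = H15.vecOf (xP i)
  rw [hi]
  exact H15.smul_eq_of_check hok h (H15.ofCode_val _ _)

section

variable {F : Type} [Field F] [Fintype F] {z : F}

/-- A subspace attached to an index. -/
def plane (z : F) (j : Fin 891) : Submodule F (Fin 6 → F) :=
  Submodule.span F (Set.range fun k : Fin 3 => enc z (basisN j k))

theorem two_eq_zero (hF : Fintype.card F = 4) : (2 : F) = 0 := by
  have h : ((4 : ℕ) : F) = 0 := by rw [← hF]; exact Nat.cast_card_eq_zero F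
  have h' : (2 : F) * 2 = 0 := by push_cast at h; linear_combination h
  exact (mul_eq_zero.1 h').elim id id

theorem exists_root (hF : Fintype.card F = 4) : ∃ z : F, z * z + z + 1 = 0 := by
  classical
  obtain ⟨z, -, hz⟩ := Finset.exists_mem_notMem_of_card_lt_card
    (show ({0, 1} : Finset F).card < (Finset.univ : Finset F).card by
      rw [Finset.card_univ, hF]; exact lt_of_le_of_lt Finset.card_le_two (by norm_num))
  simp only [Finset.mem_insert, Finset.mem_singleton, not_or] at hz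
  have h3 := FiniteField.pow_card_sub_one_eq_one z hz.1
  rw [hF] at h3
  refine ⟨z, (mul_eq_zero.1 ?_).resolve_left (sub_ne_zero.2 hz.2)⟩
  linear_combination h3

variable (hF : Fintype.card F = 4) (hz : z * z + z + 1 = 0)
include hF

theorem one_trace : (1 : F) + 1 ^ 2 = 0 := by rw [one_pow, one_add_one_eq_two, two_eq_zero hF]

omit hF in
theorem card_eq_sq (hF : Fintype.card F = 4) : Fintype.card F = 2 ^ 2 := by rw [hF]; rfl

/-- The transvection with a given centre. -/
def tv (v : Fin 6 → F) (hv : hermForm 6 F 2 v v = 0) : SU 6 F 2 :=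
  H3.suTrans (card_eq_sq hF) v 1 hv (one_trace hF)

theorem tv_mulVec (v : Fin 6 → F) (hv : hermForm 6 F 2 v v = 0) (x : Fin 6 → F) :
    ((tv hF v hv).1 : Matrix (Fin 6) (Fin 6) F) *ᵥ x = x + hermForm 6 F 2 x v • v := by
  rw [tv]
  show unitaryTransvection 6 2 v (1 : F) *ᵥ x = _
  rw [H3.unitaryTransvection_mulVec, one_mul]

theorem su_ext_mulVec {A B : SU 6 F 2}
    (h : ∀ x, (A.1 : Matrix (Fin 6) (Fin 6) F) *ᵥ x = (B.1 : Matrix (Fin 6) (Fin 6) F) *ᵥ x) :
    A = B :=
  H3.SU_ext (Matrix.ext_of_mulVec_single fun _ => h _)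

theorem tv_mul_self (v : Fin 6 → F) (hv : hermForm 6 F 2 v v = 0) :
    tv hF v hv * tv hF v hv = 1 := by
  refine su_ext_mulVec hF fun x => ?_
  rw [H3.SU_mul_mulVec, tv_mulVec, tv_mulVec, H3.hermForm_add_left (card_eq_sq hF),
    H3.hermForm_smul_left (card_eq_sq hF), hv, mul_zero, add_zero, add_assoc, ← two_smul F,
    two_eq_zero hF, zero_smul, add_zero]
  simp

theorem tv_conj (A : SU 6 F 2) (v w : Fin 6 → F) (hv : hermForm 6 F 2 v v = 0)
    (hw : hermForm 6 F 2 w w = 0) {l : F} (hl : l ^ 3 = 1)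
    (h : (A.1 : Matrix (Fin 6) (Fin 6) F) *ᵥ v = l • w) :
    A * tv hF v hv * A⁻¹ = tv hF w hw := by
  refine su_ext_mulVec hF fun x => ?_
  rw [H3.SU_mul_mulVec, H3.SU_mul_mulVec, tv_mulVec, tv_mulVec, Matrix.mulVec_add,
    Matrix.mulVec_smul, h]
  have e : (A.1 : Matrix (Fin 6) (Fin 6) F) *ᵥ ((A⁻¹).1 : Matrix (Fin 6) (Fin 6) F) *ᵥ x = x := by
    rw [← H3.SU_mul_mulVec, mul_inv_cancel]; simp
  have e2 := (H3.mem_SU_iff.1 A.2 (((A⁻¹).1 : Matrix (Fin 6) (Fin 6) F) *ᵥ x) v).symm
  rw [e2, e, h, H3.hermForm_smul_right (card_eq_sq hF), smul_smul]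
  congr 2
  linear_combination hermForm 6 F 2 x w * hl

include hz

omit hF in
theorem isotropic_enc (h2 : (2 : F) = 0) {n : ℕ} (h : hermN n n = 0) :
    hermForm 6 F 2 (enc z n) (enc z n) = 0 := by
  rw [hermForm_enc h2 hz, h]; rfl

theorem pt_isotropic {i : ℕ} (hi : i < 693) : hermN (pt i) (pt i) = 0 := by
  have h := H15.allBlocks_eq_true pt_ok hi
  rw [ptOk, Bool.and_eq_true, Nat.beq_eq] at h
  exact h.1

theorem ctr_lt {g : ℕ} (hg : g < 6) : genPts.getD g 0 < 693 := by
  have h := List.all_eq_true.1 genPts_ok.1 _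
    (H15.getD_mem (d := 0) (show g < genPts.length by rw [genPts_ok.2.1]; exact hg))
  simpa [Nat.blt, Nat.succ_le_iff] using h

/-- The transvection at a point of the certificate. -/
def tp {i : ℕ} (hi : i < 693) : SU 6 F 2 :=
  tv hF (enc z (pt i)) (isotropic_enc hz (two_eq_zero hF) (pt_isotropic hF hz hi))

theorem gen_mem {g : ℕ} (hg : g < 6) :
    tp hF hz (ctr_lt hF hz hg) ∈ liftable (q := 2) triStab X (plane z) X_injective := by
  obtain ⟨k, hk⟩ := exists_gen hg
  refine mem_liftable (k := k) fun j => ?_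
  have h2 := two_eq_zero hF
  obtain ⟨hs, hss, -, -⟩ := img_spec hg j.2
  refine ⟨⟨sig g j, hs⟩, hk _ _ rfl, ?_⟩
  have key : ∀ a b : Fin 891, (b : ℕ) = sig g a →
      suMap (tp hF hz (ctr_lt hF hz hg)) (plane z a) ≤ plane z b := by
    intro a b hb
    rw [suMap, plane, Submodule.map_span, Submodule.span_le]
    rintro _ ⟨_, ⟨k, rfl⟩, rfl⟩
    have h := Nat.eq_of_beq_eq_true ((img_spec hg a.2).2.2.2 k)
    show unitaryTransvection 6 2 (enc z (ctr g)) (1 : F) *ᵥ enc z (basisN a k) ∈ _
    have hc : ∀ t, coefN g a k t < 4 := fun t => land_three_lt _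
    rw [← tN_enc h2 hz, h, enc_xor h2, enc_xor h2, enc_smulN h2 hz (hc 0),
      enc_smulN h2 hz (hc 1), enc_smulN h2 hz (hc 2), ← hb]
    exact Submodule.add_mem _ (Submodule.smul_mem _ _ (Submodule.subset_span ⟨0, rfl⟩))
      (Submodule.add_mem _ (Submodule.smul_mem _ _ (Submodule.subset_span ⟨1, rfl⟩))
        (Submodule.smul_mem _ _ (Submodule.subset_span ⟨2, rfl⟩)))
  refine le_antisymm (key _ _ rfl) ?_
  have h := key ⟨sig g j, hs⟩ j hss.symm
  have h' : suMap (tp hF hz (ctr_lt hF hz hg)) (suMap (tp hF hz (ctr_lt hF hz hg))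
      (plane z ⟨sig g j, hs⟩)) ≤ suMap (tp hF hz (ctr_lt hF hz hg)) (plane z j) :=
    Submodule.map_mono h
  rwa [← suMap_mul, tp, tv_mul_self, suMap_one] at h'

theorem pt_mem : ∀ {i : ℕ} (hi : i < 693),
    tp hF hz hi ∈ liftable (q := 2) triStab X (plane z) X_injective := by
  intro i
  induction i using Nat.strong_induction_on with
  | _ i ih =>
    intro hi
    have h2 := two_eq_zero hF
    have h := H15.allBlocks_eq_true pt_ok hi
    simp only [ptOk, Bool.and_eq_true, Bool.or_eq_true, Nat.beq_eq, Nat.blt, Nat.ble_eq,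
      Nat.succ_le_iff, Bool.not_eq_true', ← Bool.not_eq_true] at h
    rcases h.2 with rfl | ⟨⟨⟨hp, hg⟩, hl⟩, he⟩
    · have h0 := gen_mem hF hz (show 0 < 6 by norm_num)
      simpa only [tp, ctr, genPts_ok.2.2.2] using h0
    · have hA := gen_mem hF hz hg
      have hB := ih _ hp (by omega)
      have hc := congrArg (enc z) he
      rw [tN_enc h2 hz,
        enc_smulN h2 hz (show Nat.mod (edge i) 4 < 4 from Nat.mod_lt _ (by norm_num))] at hc
      have := mul_mem (mul_mem hA hB) (inv_mem hA)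
      rw [tp, tp, tv_conj hF _ _ (enc z (pt i)) _
        (isotropic_enc hz h2 (pt_isotropic hF hz hi))
        (el_pow_three h2 hz (show Nat.mod (edge i) 4 < 4 from Nat.mod_lt _ (by norm_num)) hl) hc]
        at this
      exact this

theorem liftable_eq_top : liftable (q := 2) triStab X (plane z) X_injective = ⊤ := by
  rw [eq_top_iff, ← H3.su_closure_eq_top (card_eq_sq hF) (by norm_num) (by norm_num),
    Subgroup.closure_le]
  rintro A ⟨v, c, hv, hA⟩
  have h2 := two_eq_zero hF
  rcases eq_or_ne c 0 with rfl | hc0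
  · rw [show A = 1 from su_ext_mulVec hF fun x => by rw [hA, H3.unitaryTransvection_mulVec]; simp]
    exact one_mem _
  rcases eq_or_ne v 0 with rfl | hv0
  · rw [show A = 1 from su_ext_mulVec hF fun x => by rw [hA, H3.unitaryTransvection_mulVec]; simp]
    exact one_mem _
  have hc : c = 1 := by
    have hp := H3.trace_zero_of_transvection_preserves (card_eq_sq hF) hv0 hv
      (hA ▸ H3.mem_SU_iff.1 A.2)
    have h' : c * (1 + c) = 0 := by linear_combination hp
    have h'' := (mul_eq_zero.1 h').resolve_left hc0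
    linear_combination h'' - h2
  obtain ⟨n, hn, rfl⟩ := exists_enc h2 hz hF v
  have hn0 : n ≠ 0 := fun h => hv0 (by rw [h, enc_zero h2 hz])
  rw [hermForm_enc h2 hz, el_eq_zero h2 hz (hermN_lt _ _)] at hv
  have h := H15.allBlocks_eq_true look_ok hn
  simp only [lookOk, Bool.and_eq_true, Bool.or_eq_true, Nat.beq_eq, Nat.blt, Nat.ble_eq,
    Nat.succ_le_iff, Bool.not_eq_true', ← Bool.not_eq_true] at h
  obtain ⟨hi, he⟩ := (h.resolve_left (by simp [hn0, hv]))
  set l := Nat.mod (H15.slot 12 lookData n) 4 with hl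
  have hl4 : l < 4 := Nat.mod_lt _ (by norm_num)
  have hen : enc z n = el z l • enc z (pt (Nat.div (H15.slot 12 lookData n) 4)) :=
    (congrArg (enc z) he).trans (enc_smulN h2 hz hl4 _)
  have hl0 : l ≠ 0 := fun h0 => hv0 (by rw [hen, h0]; simp [el])
  rw [show A = tp hF hz hi from su_ext_mulVec hF fun x => by
    rw [hA, H3.unitaryTransvection_mulVec, tp, tv_mulVec, hc, one_mul, hen,
      H3.hermForm_smul_right (card_eq_sq hF), smul_smul]
    congr 2
    linear_combination hermForm 6 F 2 x (enc z (pt (Nat.div (H15.slot 12 lookData n) 4))) *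
      el_pow_three h2 hz hl4 hl0]
  exact pt_mem hF hz hi

theorem exists_moved : ∃ (g : SU 6 F 2) (j : Fin 891), suMap g (plane z j) ≠ plane z j := by
  have h2 := two_eq_zero hF
  have hg := ctr_lt hF hz (show 0 < 6 by norm_num)
  refine ⟨tp hF hz hg, 0, fun h => ?_⟩
  obtain ⟨hne, hiso⟩ := move_ok
  set b := enc z (basisN 0 2) with hb
  set c := enc z (ctr 0) with hc
  have hbmem : b ∈ plane z 0 := Submodule.subset_span ⟨2, rfl⟩
  have hne' : hermForm 6 F 2 b c ≠ 0 := by
    rw [hermForm_enc h2 hz, Ne, el_eq_zero h2 hz (hermN_lt _ _)]; exact hne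
  have hmem : b + hermForm 6 F 2 b c • c ∈ plane z 0 := by
    rw [← tv_mulVec hF c (isotropic_enc hz h2 (pt_isotropic hF hz hg)), ← h]
    exact ⟨b, hbmem, rfl⟩
  have hcmem : c ∈ plane z 0 := by
    have h' := Submodule.sub_mem _ hmem hbmem
    rw [add_sub_cancel_left] at h'
    exact (Submodule.smul_mem_iff _ hne').1 h'
  have horth : ∀ w ∈ plane z 0, hermForm 6 F 2 w b = 0 := by
    intro w hw
    induction hw using Submodule.span_induction with
    | mem w hw => obtain ⟨k, rfl⟩ := hw; rw [hermForm_enc h2 hz]; rw [Fin.val_zero, hiso k]; rfl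
    | zero => simp [hermForm]
    | add u w _ _ hu hw => rw [H3.hermForm_add_left (card_eq_sq hF), hu, hw, add_zero]
    | smul a w _ hw => rw [H3.hermForm_smul_left (card_eq_sq hF), hw, mul_zero]
  apply hne'
  rw [← H3.hermForm_pow_q (card_eq_sq hF), horth c hcmem]
  norm_num

end

theorem card_psu62 (F : Type) [Field F] [Fintype F] (hF : Fintype.card F = 4) :
    Nat.card (PSU 6 F 2) = 9196830720 := by
  have h := S0280.result (card_eq_sq hF) 6 (by norm_num)
  norm_num [Finset.prod_range_succ, Nat.even_iff] at h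
  omega

theorem card_tri {v w : ↥leechLattice} (hv : sqNorm (v : V) = 32) (hw : sqNorm (w : V) = 32)
    (hd : dotInt (v : V) (w : V) = -16) :
    Nat.card ↥(MulAction.stabilizer Co0 v ⊓ MulAction.stabilizer Co0 w) = 9196830720 := by
  have ho : MulAction.orbit (MulAction.stabilizer Co0 v) w =
      {x : ↥leechLattice | sqNorm (x : V) = 32 ∧ dotInt (v : V) (x : V) = -16} := by
    ext x
    constructor
    · rintro ⟨⟨g, hg⟩, rfl⟩
      refine ⟨(g.2.2 w).trans hw, ?_⟩
      show dotInt (v : V) ((g • w : ↥leechLattice) : V) = -16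
      conv_lhs => rw [← show g • v = v from hg]
      rw [H15.dot_smul, hd]
    · rintro ⟨h1, h2⟩
      obtain ⟨g, -, e1, e2⟩ := exists_act_pair (IsLeech.coe v) hv (IsLeech.coe w) hw (IsLeech.coe v)
        hv (IsLeech.coe x) h1 hd h2 (Or.inr rfl)
      exact ⟨⟨g, mem_stab_iff.2 e1⟩, smul_eq_of_act e2⟩
  have h := card_stab_mul (MulAction.stabilizer Co0 v) w _ ho
  have hc : {x : ↥leechLattice | sqNorm (x : V) = 32 ∧ dotInt (v : V) (x : V) = -16}.ncard
      = 4600 := by
    rw [ncard_leech_subtype (fun x => sqNorm x = 32 ∧ dotInt (v : V) x = -16),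
      ← (census (IsLeech.coe v) hv).1, numDot, ← Set.ncard_coe_finset]
    congr 1
    ext x
    simp [mem_minVecs, mem_leechLattice_iff, and_assoc]
  rw [hc, card_stab32 hv] at h
  omega

/-- The triangle stabiliser is `PSU(6, 2)`. -/
theorem triangle_iso (v w : ↥leechLattice) (hv : sqNorm (v : V) = 32) (hw : sqNorm (w : V) = 32)
    (hd : dotInt (v : V) (w : V) = -16) (F : Type) [Field F] [Fintype F]
    (hF : Fintype.card F = 4) :
    Nonempty (↥(MulAction.stabilizer Co0 v ⊓ MulAction.stabilizer Co0 w) ≃* PSU 6 F 2) := by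
  have n1 : sqNorm (H15.bA : V) = 32 := by
    rw [H15.bA, H15.ofCode_val, H15.sqNorm_vecOf]; decide +kernel
  have n2 : sqNorm (bT : V) = 32 := by
    rw [bT, H15.ofCode_val, H15.sqNorm_vecOf]; decide +kernel
  have d : dotInt (H15.bA : V) (bT : V) = -16 := by
    rw [H15.bA, bT, H15.ofCode_val, H15.ofCode_val, H15.dot_vecOf]; decide +kernel
  have hc := card_tri n1 n2 d
  haveI : Finite triStab := Nat.finite_of_card_ne_zero (by rw [hc]; norm_num)
  obtain ⟨z, hz⟩ := exists_root hF
  obtain ⟨e⟩ := planeIso (G := triStab) (card_eq_sq hF) (by norm_num : 3 ≤ 6) (by norm_num)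
    X (plane z) X_injective (liftable_eq_top hF hz) (exists_moved hF hz)
    (by rw [hc, card_psu62 F hF])
  obtain ⟨g, -, e1, e2⟩ := exists_act_pair (IsLeech.coe v) hv (IsLeech.coe w) hw
    (IsLeech.coe H15.bA) n1 (IsLeech.coe bT) n2 hd d (Or.inr rfl)
  exact ⟨(stabPairEquiv g (smul_eq_of_act e1) (smul_eq_of_act e2)).trans e⟩

end Cfsg.Agent.H14.U62
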